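import Mathlib
import Cfsg.Agent.Schur.Hopf
import Cfsg.Agent.BG.Base1

/-! Central extensions by a bimultiplicative cocycle (`Bil`) and the Schur multiplier of a direct
product (`hasSchurMultiplier_prod`). -/

set_option autoImplicit false

namespace Cfsg.Agent.Schur

open Subgroup Function
open scoped commutatorElement TensorProduct

section Bil
variable {G T : Type*} [Group G] [CommGroup T]

/-- the central extension of `G` by `T` with the bimultiplicative cocycle `c` -/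
@[ext] structure Bil (c : G →* G →* T) where
  g : G
  t : T

variable {c : G →* G →* T}

instance instSchurBilMul : Mul (Bil c) := ⟨fun x y => ⟨x.g * y.g, x.t * y.t * c x.g y.g⟩⟩
instance instSchurBilOne : One (Bil c) := ⟨⟨1, 1⟩⟩
instance instSchurBilInv : Inv (Bil c) := ⟨fun x => ⟨x.g⁻¹, x.t⁻¹ * c x.g x.g⟩⟩

@[simp] theorem Bil.mul_g (x y : Bil c) : (x * y).g = x.g * y.g := rfl
@[simp] theorem Bil.mul_t (x y : Bil c) : (x * y).t = x.t * y.t * c x.g y.g := rfl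
@[simp] theorem Bil.one_g : (1 : Bil c).g = 1 := rfl
@[simp] theorem Bil.one_t : (1 : Bil c).t = 1 := rfl
@[simp] theorem Bil.inv_g (x : Bil c) : x⁻¹.g = x.g⁻¹ := rfl
@[simp] theorem Bil.inv_t (x : Bil c) : x⁻¹.t = x.t⁻¹ * c x.g x.g := rfl

instance instSchurBilGroup : Group (Bil c) := Group.ofLeftAxioms
  (fun x y z => Bil.ext (mul_assoc _ _ _) (by simp [mul_comm, mul_left_comm, mul_assoc]))
  (fun x => Bil.ext (one_mul _) (by simp)) fun x => Bil.ext (inv_mul_cancel _) (by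
    simp [mul_right_comm])

/-- the projection onto `G` -/
def Bil.fst (c : G →* G →* T) : Bil c →* G := ⟨⟨Bil.g, rfl⟩, fun _ _ => rfl⟩

@[simp] theorem Bil.fst_apply (x : Bil c) : Bil.fst c x = x.g := rfl

theorem Bil.comm {x y : G} (h : x * y = y * x) :
    ⁅(⟨x, 1⟩ : Bil c), (⟨y, 1⟩ : Bil c)⁆ = ⟨1, c x y / c y x⟩ := by
  rw [commutatorElement_def, mul_inv_eq_iff_eq_mul, mul_inv_eq_iff_eq_mul]
  exact Bil.ext (by simpa) (by simp)

theorem Bil.mem_center {x : Bil c} (h : x.g ∈ center G) (h1 : ∀ y, c x.g y = c y x.g) :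
    x ∈ center (Bil c) :=
  mem_center_iff.2 fun y => Bil.ext (mem_center_iff.1 h _) (by simp [h1, mul_comm])

end Bil

/-- The tensor product of the commutator quotients. -/
abbrev Tens (Q₁ Q₂ : Type*) [Group Q₁] [Group Q₂] :=
  Multiplicative (Additive (Abelianization Q₁) ⊗[ℤ] Additive (Abelianization Q₂))

variable {Q₁ Q₂ : Type*} [Group Q₁] [Group Q₂]

/-- the universal bimultiplicative map -/
noncomputable def tens (Q₁ Q₂ : Type*) [Group Q₁] [Group Q₂] : Q₁ →* Q₂ →* Tens Q₁ Q₂ :=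
  MonoidHom.mk' (fun x => MonoidHom.mk' (fun y => Multiplicative.ofAdd
    (Additive.ofMul (Abelianization.of x) ⊗ₜ Additive.ofMul (Abelianization.of y)))
      fun _ _ => by simp [TensorProduct.tmul_add]) fun _ _ => by
    ext; simp [TensorProduct.add_tmul]

theorem tens_ind {H : Subgroup (Tens Q₁ Q₂)} (h : ∀ x y, tens Q₁ Q₂ x y ∈ H) (t : Tens Q₁ Q₂) :
    t ∈ H := by
  obtain ⟨t, rfl⟩ := Multiplicative.ofAdd.surjective t
  induction t with
  | zero => exact H.one_mem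
  | add a b ha hb => exact H.mul_mem ha hb
  | tmul a b =>
    obtain ⟨x, hx⟩ := QuotientGroup.mk_surjective a.toMul
    obtain ⟨y, hy⟩ := QuotientGroup.mk_surjective b.toMul
    exact (show Additive.ofMul (Abelianization.of x) = a from congrArg _ hx) ▸
      (show Additive.ofMul (Abelianization.of y) = b from congrArg _ hy) ▸ h x y

theorem exists_tens_lift {K : Type*} [CommGroup K] (β : Q₁ →* Q₂ →* K) :
    ∃ τ : Tens Q₁ Q₂ →* K, ∀ x y, τ (tens Q₁ Q₂ x y) = β x y := by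
  let γ := Abelianization.lift (Abelianization.lift β).flip
  exact ⟨AddMonoidHom.toMultiplicativeLeft (TensorProduct.liftAddHom (R := ℤ)
    (AddMonoidHom.mk' (fun y => (γ y.toMul).toAdditive) fun a b => by ext; simp).flip
      fun r m n => by simp only [map_zsmul, AddMonoidHom.zsmul_apply]), fun x y => rfl⟩

theorem exists_side {Γ A : Type*} [Group Γ] [CommGroup A] (hA : HasSchurMultiplier Q₁ A)
    (H : Subgroup Γ) (p : Γ →* Q₁) (hp : ∀ q, ∃ x ∈ H, p x = q)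
    (hk : ∀ x ∈ H, p x = 1 → x ∈ center Γ) :
    ∃ g : A → Γ, ∀ u ∈ ⁅H, H⁆, p u = 1 → ∃ a, g a = u := by
  obtain ⟨f, hf⟩ := exists_surj_mul hA (ξ := p.comp H.subtype)
    ⟨fun q => let ⟨x, h, e⟩ := hp q; ⟨⟨x, h⟩, e⟩,
      fun x hx => mem_center_iff.2 fun y => Subtype.ext (mem_center_iff.1 (hk _ x.2 hx) y)⟩
  refine ⟨fun a => (f a).1, fun u hu h1 => ?_⟩
  obtain ⟨v, hv, rfl⟩ := H.map_subtype_commutator.ge hu
  obtain ⟨a, ha⟩ := hf ⟨v, h1, hv⟩
  exact ⟨a, by simp [ha]⟩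

theorem card_ker_le_prod {Γ A B : Type*} [Group Γ] [Finite Γ] [CommGroup A] [CommGroup B]
    [Finite (A × B × Tens Q₁ Q₂)] (hA : HasSchurMultiplier Q₁ A) (hB : HasSchurMultiplier Q₂ B)
    {σ : Γ →* Q₁ × Q₂} (hσ : IsStemExtension σ) :
    Nat.card σ.ker ≤ Nat.card (A × B × Tens Q₁ Q₂) := by
  set H₁ := ((MonoidHom.snd _ _).comp σ).ker
  set H₂ := ((MonoidHom.fst _ _).comp σ).ker
  choose s hs using hσ.1
  obtain ⟨g₁, h₁⟩ := exists_side hA H₁ ((MonoidHom.fst _ _).comp σ)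
    (fun q => ⟨s (q, 1), by simp [H₁, hs], by simp [hs]⟩) fun x h h' => hσ.2.1 (Prod.ext h' h)
  obtain ⟨g₂, h₂⟩ := exists_side hB H₂ ((MonoidHom.snd _ _).comp σ)
    (fun q => ⟨s (1, q), by simp [H₂, hs], by simp [hs]⟩) fun x h h' => hσ.2.1 (Prod.ext h h')
  have hc {x y x' y' : Γ} (h : σ x = σ x') (h' : σ y = σ y') : ⁅x, y⁆ = ⁅x', y'⁆ := by
    have := commutatorElement_mul_central (x := x) (y := y) (hσ.2.1 (x := x⁻¹ * x') (by simp [h]))
      (hσ.2.1 (x := y⁻¹ * y') (by simp [h']))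
    simpa using this.symm
  have hz (x y) : ⁅s (x, 1), s (1, y)⁆ ∈ center Γ := hσ.2.1 (by
    simp [MonoidHom.mem_ker, map_commutatorElement, hs, commutatorElement_def])
  let _ : CommGroup (center Γ) := IsMulCommutative.instCommGroup
  obtain ⟨τ, hτ⟩ := exists_tens_lift (K := center Γ) (MonoidHom.mk' (fun x => MonoidHom.mk'
    (fun y => ⟨_, hz x y⟩) fun a b => Subtype.ext (by
      change ⁅_, _⁆ = ⁅_, _⁆ * ⁅_, _⁆
      rw [hc rfl (y' := s (1, a) * s (1, b)) (by simp [hs]),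
        commutatorElement_mul_right_eq_mul_conj, mul_assoc, mul_assoc, ← mul_assoc (s _),
        mem_center_iff.1 (hz x b), mul_inv_cancel_right])) fun a b => MonoidHom.ext fun y =>
    Subtype.ext (by
      change ⁅_, _⁆ = ⁅_, _⁆ * ⁅_, _⁆
      rw [hc (x' := s (a, 1) * s (b, 1)) (by simp [hs]) rfl,
        commutatorElement_mul_left_eq_conj_mul, mem_center_iff.1 (hz b y), mul_inv_cancel_right,
        mem_center_iff.1 (hz a y)]))
  set W := τ.range.map (center Γ).subtype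
  have : W.Normal := normal_of_le_center (map_subtype_le _)
  have h3 : ⁅H₁, H₂⁆ ≤ W := commutator_le.2 fun x hx y hy =>
    ⟨_, ⟨tens _ _ (σ x).1 (σ y).2, rfl⟩, by
      rw [hτ]
      exact hc (by rw [hs]; exact Prod.ext rfl hx.symm) (by rw [hs]; exact Prod.ext hy.symm rfl)⟩
  have h4 : H₁ ⊔ H₂ = ⊤ := eq_top_iff.2 fun x _ => mem_sup_of_normal_right.2
    ⟨s ((σ x).1, 1), by simp [H₁, hs], (s ((σ x).1, 1))⁻¹ * x, by simp [H₂, hs], by simp⟩
  have h5 : commutator Γ ≤ ⁅H₁, H₁⁆ ⊔ ⁅H₂, H₂⁆ ⊔ W := by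
    have n := fun A => BG.norm_of_normal (⁅H₁, H₁⁆ ⊔ ⁅H₂, H₂⁆ ⊔ W) A
    rw [commutator_def, ← h4]
    refine BG.comm_sup_le (n _) (n _) ?_ ?_ <;> rw [commutator_comm] <;>
      refine BG.comm_sup_le (n _) (n _) ?_ ?_
    exacts [le_sup_of_le_left le_sup_left, le_sup_of_le_right (commutator_comm H₁ H₂ ▸ h3),
      le_sup_of_le_right h3, le_sup_of_le_left le_sup_right]
  have hW : W ≤ σ.ker := by
    rintro _ ⟨_, ⟨t, rfl⟩, rfl⟩
    refine tens_ind (H := σ.ker.comap ((center Γ).subtype.comp τ)) (fun x y => ?_) t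
    simp [hτ, MonoidHom.mem_ker, map_commutatorElement, hs, commutatorElement_def]
  have h6 (k : σ.ker) : ∃ z : A × B × Tens Q₁ Q₂, g₁ z.1 * g₂ z.2.1 * τ z.2.2 = k := by
    obtain ⟨_, h, w, hw, e⟩ := mem_sup_of_normal_right.1 (h5 (hσ.2.2 k.2))
    obtain ⟨u, hu, v, hv, rfl⟩ := mem_sup_of_normal_right.1 h
    have e1 : σ u * σ v = 1 := by
      simpa [show σ w = 1 from hW hw, show σ k = 1 from k.2] using congrArg σ e
    have e2 : (σ u).2 = 1 := commutator_le_left _ _ hu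
    have e3 : (σ v).1 = 1 := commutator_le_left _ _ hv
    obtain ⟨a, rfl⟩ := h₁ u hu (by simpa [e3] using congrArg Prod.fst e1)
    obtain ⟨b, rfl⟩ := h₂ v hv (by simpa [e2] using congrArg Prod.snd e1)
    obtain ⟨_, ⟨t, rfl⟩, rfl⟩ := hw
    exact ⟨(a, b, t), e⟩
  choose f hf using h6
  exact Nat.card_le_card_of_injective f fun a b e => Subtype.ext (by rw [← hf, e, hf])

theorem hasSchurMultiplier_prod {A B : Type*} [CommGroup A] [CommGroup B] [Finite Q₁] [Finite Q₂]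
    (hA : HasSchurMultiplier Q₁ A) (hB : HasSchurMultiplier Q₂ B) :
    HasSchurMultiplier (Q₁ × Q₂) (A × B × Tens Q₁ Q₂) := by
  obtain ⟨Γ₁, _, _, σ₁, h₁, ⟨e₁⟩⟩ := hA.1
  obtain ⟨Γ₂, _, _, σ₂, h₂, ⟨e₂⟩⟩ := hB.1
  let c : Γ₁ × Γ₂ →* Γ₁ × Γ₂ →* Tens Q₁ Q₂ :=
    ((tens Q₁ Q₂).compl₂ (σ₂.comp (MonoidHom.snd _ _))).comp (σ₁.comp (MonoidHom.fst _ _))
  have hc (x y) : c x y = tens Q₁ Q₂ (σ₁ x.1) (σ₂ y.2) := rfl
  let ξ := (σ₁.prodMap σ₂).comp (Bil.fst c)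
  have hk {x} (hx : x ∈ ξ.ker) : σ₁ x.g.1 = 1 ∧ σ₂ x.g.2 = 1 := Prod.ext_iff.1 hx
  have hξ : IsCentralExt ξ := ⟨fun q => by
    obtain ⟨x, hx⟩ := h₁.1 q.1
    obtain ⟨y, hy⟩ := h₂.1 q.2
    exact ⟨⟨(x, y), 1⟩, Prod.ext hx hy⟩, fun x hx => Bil.mem_center (mem_center_iff.2 fun y =>
      Prod.ext (mem_center_iff.1 (h₁.2.1 (hk hx).1) _) (mem_center_iff.1 (h₂.2.1 (hk hx).2) _))
      fun y => by simp [hc, hk hx]⟩
  let f : mul ξ →* A × B × Tens Q₁ Q₂ := MonoidHom.mk'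
    (fun x => (e₁ ⟨x.1.g.1, (hk x.2.1).1⟩, e₂ ⟨x.1.g.2, (hk x.2.1).2⟩, x.1.t)) fun x y =>
      Prod.ext (map_mul e₁ ⟨_, _⟩ ⟨_, _⟩) (Prod.ext (map_mul e₂ ⟨_, _⟩ ⟨_, _⟩)
        (by simp [hc, hk x.2.1]))
  let i₁ : Γ₁ →* Bil c := MonoidHom.mk' (fun x => ⟨(x, 1), 1⟩) fun x y => by ext <;> simp [hc]
  let i₂ : Γ₂ →* Bil c := MonoidHom.mk' (fun x => ⟨(1, x), 1⟩) fun x y => by ext <;> simp [hc]
  let i₃ : Tens Q₁ Q₂ →* Bil c := MonoidHom.mk' (fun x => ⟨1, x⟩) fun x y => by ext <;> simp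
  have hf : Surjective f := fun ⟨a, b, t⟩ => by
    obtain ⟨a, rfl⟩ := e₁.surjective a
    obtain ⟨b, rfl⟩ := e₂.surjective b
    have ha : σ₁ a = 1 := a.2
    have hb : σ₂ b = 1 := b.2
    refine ⟨⟨i₁ a * i₂ b * i₃ t, by simp [ξ, i₁, i₂, i₃, MonoidHom.mem_ker, ha, hb], mul_mem (mul_mem
      ((map_commutator _ _ i₁).le.trans (commutator_mono le_top le_top) ⟨a, h₁.2.2 a.2, rfl⟩)
      ((map_commutator _ _ i₂).le.trans (commutator_mono le_top le_top) ⟨b, h₂.2.2 b.2, rfl⟩)) ?_⟩,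
      by simp [f, i₁, i₂, i₃, hc, ha]⟩
    refine tens_ind (H := (commutator _).comap i₃) (fun x y => ?_) t
    obtain ⟨x, rfl⟩ := h₁.1 x
    obtain ⟨y, rfl⟩ := h₂.1 y
    have := Bil.comm (c := c) (x := (x, 1)) (y := (1, y)) (by simp)
    simp only [hc, map_one, MonoidHom.one_apply, div_one] at this
    exact mem_comap.2 (this.subst (motive := (· ∈ _))
      (commutator_mem_commutator (mem_top _) (mem_top _)))
  have := finite_mul hξ.central
  have := Finite.of_surjective f hf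
  exact hasSchurMultiplier_of_card_le hξ f hf fun Γ _ _ σ hσ => card_ker_le_prod hA hB hσ

end Cfsg.Agent.Schur
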