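import Cfsg.Agent.Schur.Hopf
import Mathlib.GroupTheory.Transfer
import Mathlib.GroupTheory.FiniteAbelian.Duality
import Mathlib.RingTheory.RootsOfUnity.AlgebraicallyClosed
import Mathlib.Analysis.Complex.Polynomial.Basic

/-! Transfer for Schur multipliers: for `U ≤ G` with multipliers `B` and `A` there are homomorphisms
`t : A →* B`, `i : B →* A` with `i (t a) = a ^ U.index` (`exists_transfer`). A quotient of a finite abelian group is
isomorphic to a subgroup (`exists_injective_of_surjective`). -/

set_option autoImplicit false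

namespace Cfsg.Agent.Schur

open Subgroup Function
open scoped commutatorElement Pointwise

universe u v w

section
variable {F : Type w} [Group F] {G : Type u} [Group G]

/-- the commutative group structure on the kernel of `proj π` -/
@[reducible] def kerCommGroup (π : F →* G) : CommGroup (proj π).ker :=
  { (inferInstance : Group (proj π).ker) with
    mul_comm := fun a b => Subtype.ext (mem_center_iff.1 (proj_central π b.2) a) }

theorem exists_transfer_hopf [Finite G] {π : F →* G} (hπ : Surjective π) (U : Subgroup G) :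
    ∃ (t : mul (proj π) →* mul (proj (π.subgroupComap U))) (i : mul (proj (π.subgroupComap U)) →* mul (proj π)),
      ∀ a, i (t a) = a ^ U.index := by
  classical
  set H := U.comap π with hH
  set πU := π.subgroupComap U with hπU
  have hidx : H.index = U.index := index_comap_of_surjective _ hπ
  have hfi : H.FiniteIndex := ⟨by rw [hidx]; exact FiniteIndex.index_ne_zero⟩
  let _ := H.fintypeQuotientOfFiniteIndex
  let _ := kerCommGroup π
  let _ := kerCommGroup πU
  have hRH : π.ker ≤ H := fun r hr => by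
    show π r ∈ U
    rw [show π r = 1 from hr]; exact one_mem _
  let T : H.LeftTransversal := default
  let α : F ⧸ H → F := fun q => T.2.leftQuotientEquiv q
  have hα : ∀ q, (α q : F ⧸ H) = q := fun q => T.2.quotientGroupMk_leftQuotientEquiv q
  have hcj : ∀ (f : F) (r : π.ker), f⁻¹ * r * f ∈ π.ker := fun f r =>
    (MonoidHom.normal_ker π).conj_mem' _ r.2 f
  let c : π.ker →* (proj πU).ker :=
    ((QuotientGroup.mk' _).comp (inclusion hRH)).codRestrict _ (fun r => Subtype.ext r.2)
  have hc : ∀ (r : π.ker) (h : H), c ⟨(h : F)⁻¹ * r * h, hcj _ r⟩ = c r := fun r h => by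
    apply Subtype.ext
    have h1 := mem_center_iff.1 (proj_central πU (c r).2) (h : Ext πU)
    show ((h⁻¹ * inclusion hRH r * h : H) : Ext πU) = (c r : Ext πU)
    rw [QuotientGroup.mk_mul, QuotientGroup.mk_mul, QuotientGroup.mk_inv, mul_assoc]
    have h2 : ((inclusion hRH r : H) : Ext πU) = c r := rfl
    rw [h2, ← h1, inv_mul_cancel_left]
  let N : π.ker →* (proj πU).ker :=
    { toFun := fun r => ∏ q : F ⧸ H, c ⟨(α q)⁻¹ * r * α q, hcj _ r⟩
      map_one' := Finset.prod_eq_one fun q _ => by
        rw [← map_one c]; congr 1; apply Subtype.ext; simp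
      map_mul' := fun a b => by
        rw [← Finset.prod_mul_distrib]
        refine Finset.prod_congr rfl fun q _ => ?_
        rw [← map_mul]; congr 1; apply Subtype.ext; simp [mul_assoc] }
  have hN : ∀ (f : F) (r : π.ker), N ⟨f⁻¹ * r * f, hcj f r⟩ = N r := fun f r => by
    refine Fintype.prod_equiv (MulAction.toPerm f) _ _ fun q => ?_
    have hm : (α (f • q))⁻¹ * (f * α q) ∈ H := by
      rw [← QuotientGroup.eq, hα, ← smul_eq_mul, ← MulAction.Quotient.smul_mk, hα]
    rw [← hc ⟨(α (MulAction.toPerm f q))⁻¹ * r * α (MulAction.toPerm f q), hcj _ r⟩ ⟨_, hm⟩]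
    congr 1; apply Subtype.ext
    simp [mul_assoc]
  let p : π.ker →* (proj π).ker :=
    ((QuotientGroup.mk' _).comp π.ker.subtype).codRestrict _ (fun r => r.2)
  have hp : Surjective p := by
    rintro ⟨x, hx⟩
    obtain ⟨x, rfl⟩ := QuotientGroup.mk_surjective x
    exact ⟨⟨x, hx⟩, rfl⟩
  have hpN : p.ker ≤ N.ker := by
    have h1 : ⁅π.ker, (⊤ : Subgroup F)⁆ ≤ N.ker.map π.ker.subtype := by
      rw [commutator_le]
      intro a ha b _
      refine ⟨⟨a, ha⟩ * ⟨b⁻¹⁻¹ * (⟨a, ha⟩⁻¹ : π.ker) * b⁻¹, hcj _ _⟩, ?_, ?_⟩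
      · show N _ = 1
        rw [map_mul, hN, map_inv, mul_inv_cancel]
      · simp [commutatorElement_def, mul_assoc]
    intro r hr
    have h2 : (r : F) ∈ ⁅π.ker, (⊤ : Subgroup F)⁆ :=
      (QuotientGroup.eq_one_iff _).1 (congrArg Subtype.val hr)
    obtain ⟨s, hs, e⟩ := h1 h2
    rwa [show s = r from Subtype.ext e] at hs
  let N' := p.liftOfRightInverse (surjInv hp) (rightInverse_surjInv hp) ⟨N, hpN⟩
  have hN' : ∀ r, N' (p r) = N r := fun r => MonoidHom.liftOfRightInverse_comp_apply _ _ _ _ _
  -- compatibility with the transfer to the abelianization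
  let ϕ : H →* Abelianization (Ext πU) := Abelianization.of.comp (QuotientGroup.mk' _)
  have htr : ∀ r : π.ker, MonoidHom.transfer ϕ r = (Abelianization.of.comp (proj πU).ker.subtype) (N r) := by
    intro r
    rw [MonoidHom.transfer_def ϕ T]
    show _ = (Abelianization.of.comp (proj πU).ker.subtype) (∏ q : F ⧸ H, c ⟨(α q)⁻¹ * r * α q, hcj _ r⟩)
    rw [map_prod]
    refine Finset.prod_congr rfl fun q _ => ?_
    show ϕ _ = ϕ _
    congr 1
    apply Subtype.ext
    have hq : (r : F)⁻¹ • q = q := by
      conv_lhs => rw [← hα q, MulAction.Quotient.smul_mk]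
      conv_rhs => rw [← hα q]
      rw [QuotientGroup.eq]
      apply hRH
      simpa [mul_assoc] using hcj (α q) r
    show (α q)⁻¹ * ((((r : F) • T).2.leftQuotientEquiv q : F)) = (α q)⁻¹ * r * α q
    rw [smul_apply_eq_smul_apply_inv_smul, hq, smul_eq_mul, mul_assoc]
  have ht : ∀ a : mul (proj π), (N' ⟨a, a.2.1⟩ : Ext πU) ∈ mul (proj πU) := fun a => by
    refine ⟨(N' ⟨a, a.2.1⟩).2, ?_⟩
    obtain ⟨r, hr⟩ := hp ⟨a, a.2.1⟩
    have h1 : (r : F) ∈ commutator F := by
      rw [← mk_mem_commutator_iff π]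
      have : ((r : F) : Ext π) = a := congrArg Subtype.val hr
      rw [this]; exact a.2.2
    rw [← hr, hN']
    show (N r : Ext πU) ∈ commutator (Ext πU)
    rw [← Abelianization.ker_of, MonoidHom.mem_ker]
    exact (htr r).symm.trans (Abelianization.commutator_subset_ker _ h1)
  let t : mul (proj π) →* mul (proj πU) :=
    ((proj πU).ker.subtype.comp (N'.comp (inclusion inf_le_left))).codRestrict _ ht
  let j : Ext πU →* Ext π := QuotientGroup.lift _ ((QuotientGroup.mk' _).comp H.subtype) (by
    show ⁅πU.ker, (⊤ : Subgroup H)⁆ ≤ MonoidHom.ker _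
    rw [commutator_le]
    intro a ha b _
    rw [MonoidHom.mem_ker, MonoidHom.comp_apply, map_commutatorElement, QuotientGroup.mk'_apply,
      QuotientGroup.eq_one_iff]
    exact commutator_mem_commutator (congrArg Subtype.val ha) (mem_top _))
  have hj : ∀ x ∈ (proj πU).ker, j x ∈ (proj π).ker := fun x hx => by
    obtain ⟨x, rfl⟩ := QuotientGroup.mk_surjective x
    exact congrArg Subtype.val hx
  let jk : (proj πU).ker →* (proj π).ker := (j.comp (proj πU).ker.subtype).codRestrict _ (fun x => hj x x.2)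
  let i : mul (proj πU) →* mul (proj π) := (j.comp (mul (proj πU)).subtype).codRestrict _ (fun x => by
    refine ⟨hj x x.2.1, ?_⟩
    have h2 : (commutator (Ext πU)).map j ≤ commutator (Ext π) := by
      rw [map_commutator_eq]; exact commutator_mono le_top le_top
    exact h2 ⟨x, x.2.2, rfl⟩)
  refine ⟨t, i, fun a => ?_⟩
  obtain ⟨r, hr⟩ := hp ⟨a, a.2.1⟩
  have h1 : jk (N r) = p r ^ U.index := by
    show jk (∏ q : F ⧸ H, c ⟨(α q)⁻¹ * r * α q, hcj _ r⟩) = _
    rw [map_prod, ← hidx, index_eq_card, Nat.card_eq_fintype_card, ← Finset.card_univ, ← Finset.prod_const]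
    refine Finset.prod_congr rfl fun q _ => ?_
    apply Subtype.ext
    have h1 := mem_center_iff.1 (proj_central π (p r).2) (α q : Ext π)
    show (((α q)⁻¹ * r * α q : F) : Ext π) = (p r : Ext π)
    rw [QuotientGroup.mk_mul, QuotientGroup.mk_mul, QuotientGroup.mk_inv, mul_assoc]
    have h2 : ((r : F) : Ext π) = p r := rfl
    rw [h2, ← h1, inv_mul_cancel_left]
  apply Subtype.ext
  show (jk (N' ⟨a, a.2.1⟩) : Ext π) = _
  rw [← hr, hN', h1, hr]
  rfl

/-- transfer and corestriction for Schur multipliers -/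
theorem exists_transfer (U : Subgroup G) {A B : Type*} [CommGroup A] [CommGroup B] (hA : HasSchurMultiplier G A)
    (hB : HasSchurMultiplier U B) : ∃ (t : A →* B) (i : B →* A), ∀ a, i (t a) = a ^ U.index := by
  have := finite_base_of_hasSchurMultiplier hA
  have := fg_freeGroup G
  have hπ := stdPres_surjective G
  have : (U.comap (stdPres G)).FiniteIndex :=
    ⟨by rw [index_comap_of_surjective _ hπ]; exact FiniteIndex.index_ne_zero⟩
  obtain ⟨e⟩ := (hasSchurMultiplier_iff_hopf hπ A).1 hA
  obtain ⟨e'⟩ := (hasSchurMultiplier_iff_hopf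
    (MonoidHom.subgroupComap_surjective_of_surjective _ U hπ) B).1 hB
  obtain ⟨t, i, h⟩ := exists_transfer_hopf hπ U
  refine ⟨e'.symm.toMonoidHom.comp (t.comp e.toMonoidHom), e.symm.toMonoidHom.comp (i.comp e'.toMonoidHom),
    fun a => ?_⟩
  simp [h, ← map_pow]

end

/-- a quotient of a finite abelian group embeds into it -/
theorem exists_injective_of_surjective {A B : Type*} [CommGroup A] [CommGroup B] [Finite A] (f : A →* B)
    (hf : Surjective f) : ∃ g : B →* A, Injective g := by
  have : Finite B := Finite.of_surjective f hf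
  have : NeZero (Monoid.exponent A : ℂ) := ⟨by exact_mod_cast Monoid.exponent_ne_zero_of_finite⟩
  have : NeZero (Monoid.exponent B : ℂ) := ⟨by exact_mod_cast Monoid.exponent_ne_zero_of_finite⟩
  obtain ⟨eA⟩ := CommGroup.monoidHom_mulEquiv_of_hasEnoughRootsOfUnity A ℂ
  obtain ⟨eB⟩ := CommGroup.monoidHom_mulEquiv_of_hasEnoughRootsOfUnity B ℂ
  let d : (B →* ℂˣ) →* (A →* ℂˣ) := MonoidHom.compHom' f
  have hd : Injective d := fun x y h => by
    ext b
    obtain ⟨a, rfl⟩ := hf b
    exact congrArg Units.val (DFunLike.congr_fun h a)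
  exact ⟨eA.toMonoidHom.comp (d.comp eB.symm.toMonoidHom), eA.injective.comp (hd.comp eB.symm.injective)⟩

end Cfsg.Agent.Schur
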