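import Cfsg.Agent.Schur.Lift
import Mathlib.GroupTheory.FiniteAbelian.Duality
import Mathlib.RingTheory.RootsOfUnity.AlgebraicallyClosed
import Mathlib.LinearAlgebra.Matrix.Reindex

/-! Monomial representation of a central extension `E → Q` (`Q` finite) on which the kernel acts by a given
character (`exists_monomial_rep`); a stem extension in which all complex projective representations lift is a
cover (`ker_inf_commutator_of_lifts`). -/

set_option autoImplicit false

namespace Cfsg.Agent.Schur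

open Subgroup Function
open scoped commutatorElement

universe u v w

theorem exists_monomial_rep {E Q : Type*} [Group E] [Group Q] [Finite Q] {ρ : E →* Q} (hρ : IsCentralExt ρ)
    (lam : ρ.ker →* ℂˣ) : ∃ (n : ℕ) (R : E →* GL (Fin n) ℂ), 0 < n ∧
      ∀ a : ρ.ker, R a = Matrix.GeneralLinearGroup.scalar (Fin n) (lam a) := by
  classical
  have := Fintype.ofFinite Q
  let s : Q → E := surjInv hρ.surj
  have hs : ∀ q, ρ (s q) = q := surjInv_eq hρ.surj
  let c : E → Q → ρ.ker := fun g q => ⟨(s (ρ g * q))⁻¹ * g * s q, by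
    rw [MonoidHom.mem_ker, map_mul, map_mul, map_inv, hs, hs]; group⟩
  have hc : ∀ g h q, c (g * h) q = c g (ρ h * q) * c h q := fun g h q => by
    apply Subtype.ext
    show (s (ρ (g * h) * q))⁻¹ * (g * h) * s q =
      (s (ρ g * (ρ h * q)))⁻¹ * g * s (ρ h * q) * ((s (ρ h * q))⁻¹ * h * s q)
    rw [map_mul, mul_assoc (ρ g)]; group
  have hc1 : ∀ (a : ρ.ker) q, c a q = a := fun a q => by
    apply Subtype.ext
    show (s (ρ a * q))⁻¹ * a * s q = a
    rw [show ρ a = 1 from a.2, one_mul, mul_assoc, ← mem_center_iff.1 (hρ.central a.2) (s q)]; group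
  let R0 : E →* Matrix Q Q ℂ :=
    { toFun := fun g => Matrix.of fun q' q => if q' = ρ g * q then (lam (c g q) : ℂ) else 0
      map_one' := by
        ext q' q
        have := hc1 1 q
        simp only [OneMemClass.coe_one] at this
        simp [Matrix.one_apply, this]
      map_mul' := fun g h => by
        ext q' q
        simp only [Matrix.of_apply, Matrix.mul_apply, mul_ite, mul_zero, Finset.sum_ite_eq', Finset.mem_univ,
          if_true, hc, map_mul, mul_assoc, Units.val_mul]
        split_ifs <;> simp }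
  let e := Matrix.reindexAlgEquiv ℂ ℂ (Fintype.equivFin Q)
  refine ⟨Fintype.card Q, (e.toMonoidHom.comp R0).toHomUnits, Fintype.card_pos, fun a => ?_⟩
  apply Units.ext
  show e (R0 a) = _
  have : R0 a = algebraMap ℂ _ (lam a : ℂ) := by
    ext q' q
    simp [R0, hc1, show ρ a = 1 from a.2, Matrix.algebraMap_matrix_apply]
  rw [this, AlgEquiv.commutes]
  rfl

theorem ker_inf_commutator_of_lifts {F : Type w} [Group F] {Q : Type u} [Group Q] [Finite Q] {π : F →* Q}
    (hπ : Surjective π) {Γ : Type*} [Group Γ] {σ : Γ →* Q} {φ : Ext π →* Γ} (hφ : σ.comp φ = proj π)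
    (hlift : ∀ (n : ℕ) (γ : Q →* (GL (Fin n) ℂ ⧸ Subgroup.center (GL (Fin n) ℂ))), ∃ ρ : Γ →* GL (Fin n) ℂ,
      (QuotientGroup.mk' (Subgroup.center (GL (Fin n) ℂ))).comp ρ = γ.comp σ) :
    φ.ker ⊓ commutator (Ext π) = ⊥ := by
  rw [eq_bot_iff]
  rintro x ⟨hx1, hx2⟩
  by_contra hne
  have hx1' : φ x = 1 := hx1
  have hc := isCentralExt_proj hπ
  have hxk : x ∈ (proj π).ker := by rw [MonoidHom.mem_ker, ← hφ, MonoidHom.comp_apply, hx1', map_one]
  have := finite_mul hc.central
  have h1 := isMulCommutative_of_le_center hc.central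
  have h2 : IsMulCommutative (mul (proj π)) := isMulCommutative_of_le_center (inf_le_left.trans hc.central)
  let _ : CommGroup (proj π).ker := { (inferInstance : Group (proj π).ker) with mul_comm := mul_comm' }
  let _ : CommGroup (mul (proj π)) := { (inferInstance : Group (mul (proj π))) with mul_comm := mul_comm' }
  have : NeZero (Monoid.exponent (mul (proj π)) : ℂ) := ⟨by exact_mod_cast Monoid.exponent_ne_zero_of_finite⟩
  obtain ⟨l0, hl0⟩ := CommGroup.exists_apply_ne_one_of_hasEnoughRootsOfUnity (mul (proj π)) ℂ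
    (a := ⟨x, hxk, hx2⟩) (fun h => hne (congrArg Subtype.val h))
  obtain ⟨lam, hlam⟩ := exists_extend_of_divisible complex_units_divisible
    (inclusion (inf_le_left : mul (proj π) ≤ (proj π).ker)) (inclusion_injective _) l0
  obtain ⟨n, R, hn, hR⟩ := exists_monomial_rep hc lam
  let γ := (proj π).liftOfRightInverse (surjInv hc.surj) (rightInverse_surjInv hc.surj)
    ⟨(QuotientGroup.mk' (Subgroup.center (GL (Fin n) ℂ))).comp R, fun a ha => by
      rw [MonoidHom.mem_ker, MonoidHom.comp_apply, QuotientGroup.mk'_apply, QuotientGroup.eq_one_iff,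
        hR ⟨a, ha⟩, Matrix.GeneralLinearGroup.center_eq_range_scalar]
      exact ⟨_, rfl⟩⟩
  obtain ⟨ρ, hρ⟩ := hlift n γ
  have h3 : (QuotientGroup.mk' (Subgroup.center (GL (Fin n) ℂ))).comp (ρ.comp φ) =
      (QuotientGroup.mk' (Subgroup.center (GL (Fin n) ℂ))).comp R := by
    rw [← MonoidHom.comp_assoc, hρ, MonoidHom.comp_assoc, hφ]
    exact MonoidHom.liftOfRightInverse_comp _ _ _ _
  have h4 := eq_on_commutator_of_over (by rw [QuotientGroup.ker_mk']) h3 hx2
  rw [MonoidHom.comp_apply, hx1', map_one, hR ⟨x, hxk⟩] at h4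
  have h5 : lam ⟨x, hxk⟩ = l0 ⟨x, hxk, hx2⟩ := DFunLike.congr_fun hlam ⟨x, hxk, hx2⟩
  apply hl0
  rw [← h5]
  apply Units.ext
  have h6 := congrArg (fun M : GL (Fin n) ℂ => (M : Matrix (Fin n) (Fin n) ℂ) ⟨0, hn⟩ ⟨0, hn⟩) h4
  simpa using h6.symm

end Cfsg.Agent.Schur
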